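import Cfsg.Agent.L.DO12
import Cfsg.Agent.H26.Dict6
import Cfsg.Agent.H11.Defect5

set_option autoImplicit false

/-!
# Characters of degree prime to `p` when `p ∥ |G|` (helper24)
-/

namespace Cfsg.Agent.H24.McKay

open Cfsg Cfsg.Agent.H3 Cfsg.Agent.H11 Cfsg.Agent.H26 Cfsg.Agent.H27 Cfsg.Agent.LD Finset
open scoped ComplexConjugate Pointwise

universe u

variable {G : Type u} [Group G] [Fintype G] {p : ℕ} {M : Ideal AlgInt}
  {P : Subgroup G} [hp : Fact p.Prime]

theorem isDef_of_ne (h : Loc p P) (hM : IsPModular p M) {B : Set (IrrCharacter G)}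
    (hB : IsPBlock M B) (hd : blockDefect p B ≠ 0) : IsDefectGroup p M B P := by
  obtain ⟨D, hD⟩ := exists_isDefectGroup hM hB
  have hc := card_defect hM hB hD
  have h1 : blockDefect p B = 1 := by
    have : blockDefect p B ≤ (Nat.card G).factorization p := Nat.sub_le _ _
    rw [h.fact_eq] at this
    omega
  rw [h1, pow_one] at hc
  let S : Sylow p G := Sylow.ofCard D (by rw [hc, h.fact_eq, pow_one])
  obtain ⟨g, hg⟩ := MulAction.exists_smul_eq G S h.syl
  have h2 := isDefectGroup_conj hD g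
  have h3 : cg D g = P := by
    have := congrArg (fun T : Sylow p G => (T : Subgroup G)) hg
    exact this
  rwa [h3] at h2

theorem exists_block (h : Loc p P) (hM : IsPModular p M) (θ : IrrCharacter (cz P)) :
    ∃ B, IsPBlock M B ∧ IsInducedBlock M (cz P) (blockOf M (θ : cz P → ℂ)) B ∧
      IsDefectGroup p M B P := by
  have : Fintype (cz P) := Fintype.ofFinite _
  have hP : IsPGroup p P := by
    rw [IsPGroup.iff_card]
    exact ⟨1, by rw [h.card, pow_one]⟩
  have hb : IsPBlock M (blockOf M (θ : cz P → ℂ)) := ⟨θ, rfl⟩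
  obtain ⟨B, hB⟩ := inducedBlockDefined hM hP h.le_cz le_rfl Loc.cz_le_nz hb
  refine ⟨B, hB.2.1, hB, isDef_of_ne h hM hB.2.1 ?_⟩
  intro h0
  have h1 := (defect_zero_iff_of_induced hM hB).mpr h0
  have h2 := card_defect hM hb (h.isDef hM hb)
  rw [h1, pow_zero, h.card_sub] at h2
  exact hp.out.one_lt.ne' h2

theorem count (h : Loc p P) (hM : IsPModular p M) [Fintype {θ : IrrCharacter (cz P) // InKer P (θ : cz P → ℂ)}] :
    Nat.card {χ : IrrCharacter G // ¬ p ∣ charDegree (χ : G → ℂ)} * (cz P).relIndex (nz P) =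
      ∑ θ : {θ : IrrCharacter (cz P) // InKer P (θ : cz P → ℂ)},
        (((cz P).relIndex (stT P θ.1)) ^ 2 + (p - 1)) := by
  classical
  have := Fintype.ofFinite (IrrCharacter (cz P))
  have := Fintype.ofFinite (IrrCharacter G)
  have := Fintype.ofFinite (cz P)
  have hpr := hM.2.1.isPrime
  set e : IrrCharacter (cz P) → ℕ := fun θ => (cz P).relIndex (stT P θ) with he
  set S : Finset (IrrCharacter G) := univ.filter (fun χ => ¬ p ∣ charDegree (χ : G → ℂ)) with hS
  set Θ : Finset (IrrCharacter (cz P)) := univ.filter (fun θ => InKer P (θ : cz P → ℂ)) with hΘ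
  let R : IrrCharacter (cz P) → IrrCharacter G → Prop := fun θ χ =>
    IsInducedBlock M (cz P) (blockOf M (θ : cz P → ℂ)) (blockOf M (χ : G → ℂ))
  have hsum : ∑ χ ∈ S, ∑ θ ∈ Θ, (if R θ χ then e θ else 0) =
      ∑ θ ∈ Θ, ∑ χ ∈ S, (if R θ χ then e θ else 0) := Finset.sum_comm
  have h1 : ∀ χ ∈ S, ∑ θ ∈ Θ, (if R θ χ then e θ else 0) = (cz P).relIndex (nz P) := by
    intro χ hχ
    have hB : IsPBlock M (blockOf M (χ : G → ℂ)) := ⟨χ, rfl⟩
    have hBD : IsDefectGroup p M (blockOf M (χ : G → ℂ)) P := by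
      apply isDef_of_ne h hM hB
      have h2 : sInf ((fun χ : IrrCharacter G => (charDegree (χ : G → ℂ)).factorization p) ''
          (blockOf M (χ : G → ℂ))) ≤ (charDegree (χ : G → ℂ)).factorization p :=
        Nat.sInf_le ⟨χ, mem_blockOf_self χ, rfl⟩
      rw [Nat.factorization_eq_zero_of_not_dvd (Finset.mem_filter.mp hχ).2] at h2
      unfold blockDefect
      rw [h.fact_eq]
      omega
    obtain ⟨θ₀, hθ₀⟩ := h.exists_Th hM hB hBD
    have h2 : ∀ θ ∈ Θ, (if R θ χ then e θ else 0) =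
        if θ ∈ Th M P (blockOf M (χ : G → ℂ)) then e θ₀ else 0 := by
      intro θ hθ
      by_cases hR : R θ χ
      · have h3 : θ ∈ Th M P (blockOf M (χ : G → ℂ)) := ⟨(Finset.mem_filter.mp hθ).2, hR⟩
        rw [if_pos hR, if_pos h3]
        have h4 := h.card_Th hM hB hBD h3
        rw [← h.card_Th hM hB hBD hθ₀] at h4
        apply Nat.eq_of_mul_eq_mul_left _ h4
        haveI : Nonempty (Th M P (blockOf M (χ : G → ℂ))) := ⟨⟨θ₀, hθ₀⟩⟩
        exact Nat.card_pos
      · have h3 : θ ∉ Th M P (blockOf M (χ : G → ℂ)) := fun h3 => hR h3.2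
        rw [if_neg hR, if_neg h3]
    rw [Finset.sum_congr rfl h2, ← Finset.sum_filter, Finset.sum_const, smul_eq_mul,
      ← h.card_Th hM hB hBD hθ₀, Nat.card_eq_fintype_card, Fintype.card_subtype]
    congr 2
    ext θ
    simp only [hΘ, Finset.mem_filter, Finset.mem_univ, true_and]
    exact ⟨fun h => h.2, fun h => ⟨h.1, h⟩⟩
  have h2 : ∀ θ ∈ Θ, ∑ χ ∈ S, (if R θ χ then e θ else 0) = (e θ) ^ 2 + (p - 1) := by
    intro θ hθ
    obtain ⟨B, hB, hind, hBD⟩ := exists_block h hM θ
    have hTh : θ ∈ Th M P B := ⟨(Finset.mem_filter.mp hθ).2, hind⟩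
    obtain ⟨k0, hg, f', Y, c, s, D⟩ := h.exists_dat hM hB hBD hTh
    have h3 : S.filter (R θ) = univ.filter (· ∈ B) := by
      ext χ
      simp only [hS, Finset.mem_filter, Finset.mem_univ, true_and]
      constructor
      · rintro ⟨-, hR⟩
        rw [isInducedBlock_unique hM hind hR]
        exact mem_blockOf_self χ
      · intro hχ
        refine ⟨h.deg_not_dvd hM hB hBD hχ, ?_⟩
        change IsInducedBlock M (cz P) _ _
        rw [← isPBlock_eq_blockOf hB hχ]
        exact hind
    rw [← Finset.sum_filter, h3, Finset.sum_const, smul_eq_mul]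
    have h4 : (univ.filter (· ∈ B)).card = Nat.card B := by
      rw [Nat.card_eq_fintype_card, Fintype.card_subtype]
    rw [h4, card_block_eq B Y D.exc.sub, D.cardX, D.exc.card, add_mul, mul_comm f', D.exc.fmul, sq]
  rw [Finset.sum_congr rfl h1, Finset.sum_congr rfl h2, Finset.sum_const, smul_eq_mul] at hsum
  have h3 : S.card = Nat.card {χ : IrrCharacter G // ¬ p ∣ charDegree (χ : G → ℂ)} := by
    rw [Nat.card_eq_fintype_card, Fintype.card_subtype]
  rw [h3] at hsum
  rw [hsum, hΘ]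
  exact Finset.sum_subtype (univ.filter fun θ : IrrCharacter (cz P) => InKer P (θ : cz P → ℂ)) (by simp) _

section transport

/-- the isomorphism between the centralizers -/
theorem cz_sub : cz (P.subgroupOf (nz P)) = (cz P).subgroupOf (nz P) := by
  ext c
  rw [Subgroup.mem_subgroupOf, Subgroup.mem_centralizer_iff, Subgroup.mem_centralizer_iff]
  constructor
  · intro hc x hx
    have := hc ⟨x, Subgroup.le_normalizer hx⟩ (Subgroup.mem_subgroupOf.mpr hx)
    exact congrArg Subtype.val this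
  · intro hc x hx
    exact Subtype.ext (hc x (Subgroup.mem_subgroupOf.mp hx))

theorem nz_sub : nz (P.subgroupOf (nz P)) = (nz P).subgroupOf (nz P) := by
  rw [Subgroup.subgroupOf_self]
  exact Subgroup.normalizer_eq_top_iff.mpr Subgroup.normal_in_normalizer

noncomputable def phi (P : Subgroup G) : cz (P.subgroupOf (nz P)) ≃* cz P :=
  (MulEquiv.subgroupCongr cz_sub).trans (Subgroup.subgroupOfEquivOfLe Loc.cz_le_nz)

theorem phi_coe (c : cz (P.subgroupOf (nz P))) : ((phi P c : cz P) : G) = ((c : nz P) : G) := rfl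

/-- transported characters -/
noncomputable def tr (P : Subgroup G) : IrrCharacter (cz P) ≃ IrrCharacter (cz (P.subgroupOf (nz P))) where
  toFun θ := ⟨fun c => (θ : cz P → ℂ) (phi P c), (isIrr_comp_equiv_iff (phi P)).mpr θ.2⟩
  invFun θ := ⟨fun c => (θ : cz (P.subgroupOf (nz P)) → ℂ) ((phi P).symm c),
    (isIrr_comp_equiv_iff (phi P).symm).mpr θ.2⟩
  left_inv θ := by apply Subtype.ext; funext c; simp
  right_inv θ := by apply Subtype.ext; funext c; simp

theorem tr_apply (θ : IrrCharacter (cz P)) (c : cz (P.subgroupOf (nz P))) :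
    (tr P θ : cz (P.subgroupOf (nz P)) → ℂ) c = (θ : cz P → ℂ) (phi P c) := rfl

theorem inKer_tr (θ : IrrCharacter (cz P)) :
    InKer (P.subgroupOf (nz P)) (tr P θ : cz (P.subgroupOf (nz P)) → ℂ) ↔ InKer P (θ : cz P → ℂ) := by
  constructor
  · intro h u hu g
    have h1 := h ((phi P).symm u) (by
      rw [Subgroup.mem_subgroupOf, ← phi_coe, MulEquiv.apply_symm_apply]; exact hu) ((phi P).symm g)
    rw [tr_apply, tr_apply, map_mul, MulEquiv.apply_symm_apply, MulEquiv.apply_symm_apply] at h1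
    exact h1
  · intro h u hu g
    rw [tr_apply, tr_apply, map_mul]
    apply h
    rw [phi_coe]
    exact Subgroup.mem_subgroupOf.mp hu

theorem stT_tr [Fintype (nz P)] (θ : IrrCharacter (cz P)) :
    stT (P.subgroupOf (nz P)) (tr P θ) = (stT P θ).subgroupOf (nz P) := by
  ext g
  rw [Subgroup.mem_subgroupOf, mem_stT_iff', mem_stT_iff']
  constructor
  · rintro ⟨-, h⟩
    refine ⟨g.2, fun c c' hc => ?_⟩
    have e1 := phi_coe ((phi P).symm c)
    have e2 := phi_coe ((phi P).symm c')
    rw [MulEquiv.apply_symm_apply] at e1 e2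
    have h1 := h ((phi P).symm c) ((phi P).symm c') (by
      apply Subtype.ext
      rw [← e2, hc, e1]
      rfl)
    rw [tr_apply, tr_apply, MulEquiv.apply_symm_apply, MulEquiv.apply_symm_apply] at h1
    exact h1
  · rintro ⟨h1, h⟩
    refine ⟨by rw [nz_sub, Subgroup.subgroupOf_self]; trivial, fun c c' hc => ?_⟩
    rw [tr_apply, tr_apply]
    apply h
    rw [phi_coe, phi_coe, hc]
    rfl

end transport

theorem loc_sub (h : Loc p P) : Loc p (P.subgroupOf (nz P)) := by
  refine ⟨?_, fun hd => h.sq (hd.trans (Subgroup.card_subgroup_dvd_card _))⟩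
  rw [Nat.card_congr (Subgroup.subgroupOfEquivOfLe Subgroup.le_normalizer).toEquiv, h.card]

theorem card_irr_normalizer (h : Loc p P) (hM : IsPModular p M) [Fintype (nz P)] :
    Nat.card {χ : IrrCharacter (nz P) // ¬ p ∣ charDegree (χ : nz P → ℂ)} =
      Nat.card (ConjClasses (nz P)) := by
  rw [← card_irr_eq]
  have h' := loc_sub h
  have : ∀ χ : IrrCharacter (nz P), ¬ p ∣ charDegree (χ : nz P → ℂ) := by
    intro χ
    have hpr := hM.2.1.isPrime
    have hB : IsPBlock M (blockOf M (χ : nz P → ℂ)) := ⟨χ, rfl⟩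
    obtain ⟨D, hD⟩ := exists_isDefectGroup hM hB
    have hn : (P.subgroupOf (nz P)).Normal := Subgroup.normal_in_normalizer
    have hP : IsPGroup p (P.subgroupOf (nz P)) := by
      rw [IsPGroup.iff_card]
      exact ⟨1, by rw [h'.card, pow_one]⟩
    have h1 := normal_le_defect hM hB hD hP
    have h2 : blockDefect p (blockOf M (χ : nz P → ℂ)) ≠ 0 := by
      intro h0
      have h3 := card_defect hM hB hD
      rw [h0, pow_zero, Subgroup.card_eq_one] at h3
      rw [h3, le_bot_iff] at h1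
      have h4 := h'.card
      rw [h1, Subgroup.card_bot] at h4
      exact hp.out.one_lt.ne h4
    exact h'.deg_not_dvd hM hB (isDef_of_ne h' hM hB h2) (mem_blockOf_self χ)
  exact Nat.card_congr (Equiv.subtypeUnivEquiv this)

/-- McKay's conjecture when the Sylow subgroup has order `p`. -/
theorem mckay (h : Loc p P) :
    Nat.card {χ : IrrCharacter G // ¬ p ∣ charDegree (χ : G → ℂ)} = Nat.card (ConjClasses (nz P)) := by
  classical
  obtain ⟨M, hM⟩ := exists_isPModular hp.out
  have := Fintype.ofFinite (nz P)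
  have := Fintype.ofFinite {θ : IrrCharacter (cz P) // InKer P (θ : cz P → ℂ)}
  have := Fintype.ofFinite {θ : IrrCharacter (cz (P.subgroupOf (nz P))) //
    InKer (P.subgroupOf (nz P)) (θ : cz (P.subgroupOf (nz P)) → ℂ)}
  have h1 := count h hM
  have h2 := count (loc_sub h) hM
  rw [← card_irr_normalizer h hM]
  have h3 : (cz (P.subgroupOf (nz P))).relIndex (nz (P.subgroupOf (nz P))) = (cz P).relIndex (nz P) := by
    rw [cz_sub, nz_sub, Subgroup.relIndex_subgroupOf le_rfl]
  rw [h3] at h2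
  have h4 : ∑ θ : {θ : IrrCharacter (cz (P.subgroupOf (nz P))) //
      InKer (P.subgroupOf (nz P)) (θ : cz (P.subgroupOf (nz P)) → ℂ)},
        (((cz (P.subgroupOf (nz P))).relIndex (stT (P.subgroupOf (nz P)) θ.1)) ^ 2 + (p - 1)) =
      ∑ θ : {θ : IrrCharacter (cz P) // InKer P (θ : cz P → ℂ)},
        (((cz P).relIndex (stT P θ.1)) ^ 2 + (p - 1)) := by
    symm
    let E : {θ : IrrCharacter (cz P) // InKer P (θ : cz P → ℂ)} ≃
        {θ : IrrCharacter (cz (P.subgroupOf (nz P))) //
          InKer (P.subgroupOf (nz P)) (θ : cz (P.subgroupOf (nz P)) → ℂ)} :=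
      (tr P).subtypeEquiv (p := fun θ : IrrCharacter (cz P) => InKer P (θ : cz P → ℂ))
        (q := fun θ : IrrCharacter (cz (P.subgroupOf (nz P))) =>
          InKer (P.subgroupOf (nz P)) (θ : cz (P.subgroupOf (nz P)) → ℂ))
        fun θ => (inKer_tr θ).symm
    refine Fintype.sum_equiv E _ _ fun θ => ?_
    have : (E θ).1 = tr P θ.1 := rfl
    rw [this, stT_tr, cz_sub, Subgroup.relIndex_subgroupOf (stT_le θ.1)]
  rw [h4, ← h1] at h2
  apply Nat.eq_of_mul_eq_mul_right _ h2.symm
  apply Nat.pos_of_ne_zero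
  intro h0
  have h5 := Subgroup.relIndex_mul_relIndex (⊥ : Subgroup G) (cz P) (nz P) bot_le Loc.cz_le_nz
  rw [h0, mul_zero, Subgroup.relIndex_bot_left] at h5
  exact Nat.card_pos.ne h5

end Cfsg.Agent.H24.McKay
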