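import Mathlib
import Cfsg.Prelude.Def_KGroupFacts

/-!
# Presented metacyclic groups (helper24)
-/

set_option autoImplicit false
set_option linter.unusedSectionVars false
set_option linter.unusedVariables false
open Subgroup

namespace Cfsg.Agent.H24

/-- relators of a metacyclic group -/
abbrev mrel (M n t r : ℕ) : Set (FreeGroup Bool) :=
  {FreeGroup.of true ^ M, (FreeGroup.of false) ^ n * (FreeGroup.of true ^ t)⁻¹,
    FreeGroup.of false * FreeGroup.of true * (FreeGroup.of false)⁻¹ * (FreeGroup.of true ^ r)⁻¹}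

abbrev Mt (M n t r : ℕ) := PresentedGroup (mrel M n t r)

/-- generators -/
def mA (M n t r : ℕ) : Mt M n t r := PresentedGroup.of true
def mB (M n t r : ℕ) : Mt M n t r := PresentedGroup.of false

variable {M n t r : ℕ}

theorem mA_pow : (mA M n t r) ^ M = 1 := by
  have h : (PresentedGroup.mk (mrel M n t r)) (FreeGroup.of true ^ M) = 1 :=
    PresentedGroup.one_of_mem (by simp [mrel])
  rw [map_pow] at h
  exact h

theorem mB_pow : (mB M n t r) ^ n = (mA M n t r) ^ t := by
  have h : (PresentedGroup.mk (mrel M n t r)) ((FreeGroup.of false) ^ n *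
      (FreeGroup.of true ^ t)⁻¹) = 1 :=
    PresentedGroup.one_of_mem (by simp [mrel])
  rw [map_mul, map_inv, map_pow, map_pow, mul_inv_eq_one] at h
  exact h

theorem mB_conj : (mB M n t r) * (mA M n t r) * (mB M n t r)⁻¹ = (mA M n t r) ^ r := by
  have h : (PresentedGroup.mk (mrel M n t r)) (FreeGroup.of false * FreeGroup.of true *
      (FreeGroup.of false)⁻¹ * (FreeGroup.of true ^ r)⁻¹) = 1 :=
    PresentedGroup.one_of_mem (by simp [mrel])
  rw [map_mul, map_mul, map_mul, map_inv, map_inv, map_pow, mul_inv_eq_one] at h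
  exact h

theorem mt_lift {H : Type*} [Group H] (a b : H) (h1 : a ^ M = 1) (h2 : b ^ n = a ^ t)
    (h3 : b * a * b⁻¹ = a ^ r) : ∃ f : Mt M n t r →* H, f (mA M n t r) = a ∧ f (mB M n t r) = b := by
  refine ⟨PresentedGroup.toGroup (f := fun x : Bool => if x then a else b) ?_, ?_, ?_⟩
  · intro x hx
    simp only [mrel, Set.mem_insert_iff, Set.mem_singleton_iff] at hx
    rcases hx with rfl | rfl | rfl
    · simpa using h1
    · simp [h2]
    · simp [h3]
  · simp [mA]
  · simp [mB]

theorem mt_gen : closure ({mA M n t r, mB M n t r} : Set (Mt M n t r)) = ⊤ := by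
  have h := PresentedGroup.closure_range_of (mrel M n t r)
  rw [eq_top_iff, ← h, Subgroup.closure_le]
  rintro _ ⟨x, rfl⟩
  cases x
  · exact Subgroup.subset_closure (by right; rfl)
  · exact Subgroup.subset_closure (by left; rfl)

theorem mt_finite (hM : 0 < M) (hn : 0 < n) : Finite (Mt M n t r) := by
  set A := mA M n t r with hA
  set B := mB M n t r with hB
  have hfin : IsOfFinOrder A := isOfFinOrder_iff_pow_eq_one.2 ⟨M, hM, mA_pow⟩
  haveI hN : Finite (zpowers A) := Set.finite_coe_iff.2 (finite_zpowers.2 hfin)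
  have hnorm : (zpowers A).Normal := by
    rw [← Subgroup.normalizer_eq_top_iff, eq_top_iff, ← mt_gen, Subgroup.closure_le]
    rintro x hx
    simp only [Set.mem_insert_iff, Set.mem_singleton_iff] at hx
    rcases hx with rfl | rfl
    · exact Subgroup.le_normalizer (mem_zpowers A)
    · haveI := Fintype.ofFinite (zpowers A)
      refine Subgroup.mem_normalizer_fintype ?_
      rintro _ ⟨k, rfl⟩
      show B * A ^ k * B⁻¹ ∈ zpowers A
      rw [← conj_zpow, mB_conj, ← hA]
      exact zpow_mem (pow_mem (mem_zpowers A) r) k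
  haveI hQ : Finite (Mt M n t r ⧸ zpowers A) := by
    have h1 : (zpowers (QuotientGroup.mk B : Mt M n t r ⧸ zpowers A)) = ⊤ := by
      rw [eq_top_iff]
      have h2 : (closure ({A, B} : Set (Mt M n t r))).map (QuotientGroup.mk' (zpowers A)) = ⊤ := by
        rw [mt_gen, ← MonoidHom.range_eq_map, MonoidHom.range_eq_top]
        exact QuotientGroup.mk'_surjective _
      rw [← h2, MonoidHom.map_closure, Subgroup.closure_le]
      rintro _ ⟨x, hx, rfl⟩
      simp only [Set.mem_insert_iff, Set.mem_singleton_iff] at hx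
      rcases hx with rfl | rfl
      · have : (QuotientGroup.mk' (zpowers A)) A = 1 := by
          rw [QuotientGroup.mk'_apply, QuotientGroup.eq_one_iff]
          exact mem_zpowers A
        rw [this]
        exact one_mem _
      · exact mem_zpowers _
    have h3 : IsOfFinOrder (QuotientGroup.mk B : Mt M n t r ⧸ zpowers A) := by
      refine isOfFinOrder_iff_pow_eq_one.2 ⟨n, hn, ?_⟩
      rw [← QuotientGroup.mk_pow, mB_pow, QuotientGroup.eq_one_iff]
      exact pow_mem (mem_zpowers A) t
    have h4 : Finite (zpowers (QuotientGroup.mk B : Mt M n t r ⧸ zpowers A)) :=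
      Set.finite_coe_iff.2 (finite_zpowers.2 h3)
    rw [h1] at h4
    exact Finite.of_equiv _ Subgroup.topEquiv.toEquiv
  apply Nat.finite_of_card_ne_zero
  rw [← (zpowers A).card_mul_index]
  refine mul_ne_zero Nat.card_pos.ne' ?_
  rw [Subgroup.index_eq_card]
  exact Nat.card_pos.ne'

end Cfsg.Agent.H24
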