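import Cfsg.Agent.H24.MetaSchur

/-!
# Presented metacyclic groups: the order of the first generator (helper24)
-/

set_option autoImplicit false
set_option linter.unusedSectionVars false
set_option linter.unusedVariables false
open Subgroup

namespace Cfsg.Agent.H24

/-- the model automorphism -/
def mAut {C : Type*} [CommGroup C] {M n r : ℕ} (hC : ∀ x : C, x ^ M = 1) (hn : 0 < n)
    (hr : r ^ n ≡ 1 [MOD M]) : MulAut C where
  toFun x := x ^ r
  invFun x := x ^ (r ^ (n - 1))
  left_inv := by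
    intro x
    show (x ^ r) ^ (r ^ (n - 1)) = x
    rw [← pow_mul, ← pow_succ', Nat.sub_add_cancel hn]
    have h1 : x ^ (r ^ n) = x ^ 1 := by
      rw [pow_eq_pow_iff_modEq]
      exact hr.of_dvd (orderOf_dvd_of_pow_eq_one (hC x))
    rw [h1, pow_one]
  right_inv := by
    intro x
    show (x ^ (r ^ (n - 1))) ^ r = x
    rw [← pow_mul, ← pow_succ, Nat.sub_add_cancel hn]
    have h1 : x ^ (r ^ n) = x ^ 1 := by
      rw [pow_eq_pow_iff_modEq]
      exact hr.of_dvd (orderOf_dvd_of_pow_eq_one (hC x))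
    rw [h1, pow_one]
  map_mul' := fun x y => mul_pow x y r

theorem mAut_apply {C : Type*} [CommGroup C] {M n r : ℕ} (hC : ∀ x : C, x ^ M = 1) (hn : 0 < n)
    (hr : r ^ n ≡ 1 [MOD M]) (x : C) : mAut hC hn hr x = x ^ r := rfl

theorem mAut_pow_apply {C : Type*} [CommGroup C] {M n r : ℕ} (hC : ∀ x : C, x ^ M = 1) (hn : 0 < n)
    (hr : r ^ n ≡ 1 [MOD M]) (k : ℕ) (x : C) : ((mAut hC hn hr) ^ k) x = x ^ (r ^ k) := by
  induction k with
  | zero => simp
  | succ k ih => rw [pow_succ', MulAut.mul_apply, ih, mAut_apply, ← pow_mul, ← pow_succ]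

theorem exists_model (M n t r : ℕ) (hM : 0 < M) (hn : 0 < n) (hr : r ^ n ≡ 1 [MOD M])
    (ht : t * r ≡ t [MOD M]) : ∃ (H : Type) (_ : Group H) (a b : H), orderOf a = M ∧
      b ^ n = a ^ t ∧ b * a * b⁻¹ = a ^ r := by
  haveI : NeZero M := ⟨hM.ne'⟩
  let C := Multiplicative (ZMod M)
  have hC : ∀ x : C, x ^ M = 1 := by
    intro x
    have h := pow_card_eq_one' (x := x)
    rwa [show Nat.card C = M from by
      rw [Nat.card_eq_fintype_card, Fintype.card_multiplicative, ZMod.card]] at h
  let e : MulAut C := mAut hC hn hr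
  let φ : Multiplicative ℤ →* MulAut C := zpowersHom (MulAut C) e
  let g : C := Multiplicative.ofAdd (1 : ZMod M)
  have hg : orderOf g = M := by
    rw [orderOf_ofAdd_eq_addOrderOf, ZMod.addOrderOf_one]
  let z1 : Multiplicative ℤ := Multiplicative.ofAdd (1 : ℤ)
  have hφ1 : φ z1 = e := by simp [φ, z1]
  have hz1 : ∀ z : Multiplicative ℤ, z = z1 ^ (Multiplicative.toAdd z) := by
    intro z
    simp only [z1]
    rw [← ofAdd_zsmul]
    simp
  let E := C ⋊[φ] Multiplicative ℤ
  let a0 : E := SemidirectProduct.inl g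
  let b0 : E := SemidirectProduct.inr z1
  have hconj : ∀ c : C, ∀ z : Multiplicative ℤ, (SemidirectProduct.inr z : E) *
      SemidirectProduct.inl c * (SemidirectProduct.inr z)⁻¹ = SemidirectProduct.inl (φ z c) := by
    intro c z
    rw [← map_inv]
    exact (SemidirectProduct.inl_aut z c).symm
  have hba : b0 * a0 * b0⁻¹ = a0 ^ r := by
    show (SemidirectProduct.inr z1 : E) * SemidirectProduct.inl g *
      (SemidirectProduct.inr z1)⁻¹ = _
    rw [hconj, hφ1]
    show SemidirectProduct.inl (g ^ r) = _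
    rw [map_pow]
  -- the central element
  have hen : ∀ c : C, φ (z1 ^ n) c = c := by
    intro c
    rw [map_pow, hφ1]
    show ((mAut hC hn hr) ^ n) c = c
    rw [mAut_pow_apply]
    have h1 : c ^ (r ^ n) = c ^ 1 := by
      rw [pow_eq_pow_iff_modEq]
      exact hr.of_dvd (orderOf_dvd_of_pow_eq_one (hC c))
    rw [h1, pow_one]
  have het : ∀ z : Multiplicative ℤ, φ z (g ^ t) = g ^ t := by
    intro z
    have h1 : e (g ^ t) = g ^ t := by
      show (g ^ t) ^ r = g ^ t
      rw [← pow_mul, pow_eq_pow_iff_modEq, hg]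
      exact ht
    have h2 : e ∈ MulAction.stabilizer (MulAut C) (g ^ t) := h1
    rw [hz1 z, map_zpow, hφ1]
    have h3 := zpow_mem h2 (Multiplicative.toAdd z)
    exact h3
  let w : E := b0 ^ n * (a0 ^ t)⁻¹
  have hw : w = SemidirectProduct.inr (z1 ^ n) * SemidirectProduct.inl ((g ^ t)⁻¹) := by
    show b0 ^ n * (a0 ^ t)⁻¹ = _
    rw [map_pow, map_inv, map_pow]
  have hwl : ∀ c : C, Commute (SemidirectProduct.inl c : E) w := by
    intro c
    rw [hw]
    refine Commute.mul_right ?_ ?_
    · have h1 := hconj c (z1 ^ n)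
      rw [hen, mul_inv_eq_iff_eq_mul] at h1
      exact h1.symm
    · show _ * _ = _ * _
      rw [← map_mul, ← map_mul, mul_comm]
  have hwr : ∀ z : Multiplicative ℤ, Commute (SemidirectProduct.inr z : E) w := by
    intro z
    rw [hw]
    refine Commute.mul_right ?_ ?_
    · show _ * _ = _ * _
      rw [← map_mul, ← map_mul, mul_comm]
    · have h0 : φ z ((g ^ t)⁻¹) = (g ^ t)⁻¹ := by rw [map_inv, het]
      have h1 := hconj ((g ^ t)⁻¹) z
      rw [h0, mul_inv_eq_iff_eq_mul] at h1
      exact h1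
  have hwc : w ∈ Subgroup.center E := by
    rw [Subgroup.mem_center_iff]
    intro x
    rw [← SemidirectProduct.inl_left_mul_inr_right x]
    exact ((hwl x.left).mul_left (hwr x.right))
  haveI hK : (zpowers w).Normal := ⟨fun x hx y => by
    have h1 := Subgroup.mem_center_iff.1 ((zpowers_le.2 hwc) hx) y
    rw [h1, mul_inv_cancel_right]; exact hx⟩
  refine ⟨E ⧸ zpowers w, inferInstance, QuotientGroup.mk a0, QuotientGroup.mk b0, ?_, ?_, ?_⟩
  · apply Nat.dvd_antisymm
    · apply orderOf_dvd_of_pow_eq_one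
      rw [← QuotientGroup.mk_pow]
      have : a0 ^ M = 1 := by
        show (SemidirectProduct.inl g : E) ^ M = 1
        rw [← map_pow, hC, map_one]
      rw [this]; rfl
    · have h1 := pow_orderOf_eq_one (QuotientGroup.mk a0 : E ⧸ zpowers w)
      set k := orderOf (QuotientGroup.mk a0 : E ⧸ zpowers w)
      rw [← QuotientGroup.mk_pow, QuotientGroup.eq_one_iff] at h1
      obtain ⟨j, hj⟩ := h1
      simp only at hj
      have h2 := congrArg SemidirectProduct.rightHom hj
      rw [map_zpow, map_pow] at h2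
      have h3 : SemidirectProduct.rightHom a0 = 1 := SemidirectProduct.rightHom_inl _
      have h4 : SemidirectProduct.rightHom w = z1 ^ n := by
        rw [hw, map_mul, SemidirectProduct.rightHom_inr, SemidirectProduct.rightHom_inl, mul_one]
      rw [h3, h4, one_pow] at h2
      have h5 : j = 0 := by
        have h6 := congrArg Multiplicative.toAdd h2
        simp [z1] at h6
        rcases h6 with h6 | h6
        · exact h6
        · omega
      rw [h5, zpow_zero] at hj
      have h7 : (SemidirectProduct.inl (g ^ k) : E) = SemidirectProduct.inl 1 := by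
        rw [map_pow, map_one]; exact hj.symm
      have h8 := SemidirectProduct.inl_injective h7
      rw [← hg]
      exact orderOf_dvd_of_pow_eq_one h8
  · rw [← QuotientGroup.mk_pow, ← QuotientGroup.mk_pow, QuotientGroup.eq]
    have h1 : (b0 ^ n)⁻¹ * a0 ^ t = w⁻¹ := by
      have hc : Commute (b0 ^ n) (a0 ^ t) := by
        have h2 := hconj (g ^ t) (z1 ^ n)
        rw [hen, mul_inv_eq_iff_eq_mul, map_pow, map_pow] at h2
        exact h2
      show (b0 ^ n)⁻¹ * a0 ^ t = (b0 ^ n * (a0 ^ t)⁻¹)⁻¹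
      rw [mul_inv_rev, inv_inv]
      exact (hc.inv_left).eq
    rw [h1]
    exact inv_mem (mem_zpowers w)
  · rw [← QuotientGroup.mk_mul, ← QuotientGroup.mk_inv, ← QuotientGroup.mk_mul, hba,
      QuotientGroup.mk_pow]

theorem orderOf_mA {M n t r : ℕ} (hM : 0 < M) (hn : 0 < n) (hr : r ^ n ≡ 1 [MOD M])
    (ht : t * r ≡ t [MOD M]) : orderOf (mA M n t r) = M := by
  apply Nat.dvd_antisymm (orderOf_dvd_of_pow_eq_one mA_pow)
  obtain ⟨H, _, a, b, h1, h2, h3⟩ := exists_model M n t r hM hn hr ht
  obtain ⟨f, hf, -⟩ := mt_lift (M := M) (n := n) (t := t) (r := r) a b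
    (by rw [← h1]; exact pow_orderOf_eq_one a) h2 h3
  have h4 := orderOf_map_dvd f (mA M n t r)
  rw [hf, h1] at h4
  exact h4

end Cfsg.Agent.H24
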