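import Cfsg.Agent.H24.MetaSchur2

/-!
# Stem extensions of metacyclic groups (helper24)
-/

set_option autoImplicit false
set_option linter.unusedSectionVars false
set_option linter.unusedVariables false
open Subgroup
open scoped commutatorElement

namespace Cfsg.Agent.H24

theorem stem_meta {Γ G : Type*} [Group Γ] [Group G] [Finite Γ] (σ : Γ →* G)
    (hσ : Cfsg.IsStemExtension σ) (a b : G) (hgen : closure ({a, b} : Set G) = ⊤)
    (m n t r : ℕ) (hm0 : 0 < m) (hr0 : 0 < r) (ha : orderOf a = m) (hb : b ^ n = a ^ t)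
    (hab : b * a * b⁻¹ = a ^ r) :
    ∃ c : Γ, c ^ t = 1 ∧ c ^ m = 1 ∧ c ^ (∑ i ∈ Finset.range n, r ^ i) = 1 ∧
      σ.ker = zpowers (c ^ (m / Nat.gcd m (r - 1))) := by
  obtain ⟨hsurj, hcen, hcomm⟩ := hσ
  obtain ⟨α, hα⟩ := hsurj a
  obtain ⟨β, hβ⟩ := hsurj b
  have hZ : ∀ z ∈ σ.ker, ∀ g : Γ, Commute g z := fun z hz g => mem_center_iff.1 (hcen hz) g
  set c := β * α * β⁻¹ * α⁻¹ with hc
  have hrr : r = (r - 1) + 1 := by omega
  have hσc : σ c = a ^ (r - 1) := by
    rw [hc]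
    simp only [map_mul, map_inv, hα, hβ]
    rw [hab]
    nth_rw 1 [hrr]
    rw [pow_succ, mul_inv_cancel_right]
  set z := (α ^ (r - 1))⁻¹ * c with hz
  have hzk : z ∈ σ.ker := by
    rw [MonoidHom.mem_ker, hz, map_mul, map_inv, map_pow, hα, hσc, inv_mul_cancel]
  have hcz : c = α ^ (r - 1) * z := by rw [hz]; group
  have hcα : Commute c α := by
    rw [hcz]
    exact (((Commute.refl α).pow_left _)).mul_left (hZ z hzk α).symm
  have hβα : β * α * β⁻¹ = c * α := by rw [hc]; group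
  have hβc : β * c * β⁻¹ = c ^ r := by
    have h1 : β * c * β⁻¹ = (β * α * β⁻¹) ^ (r - 1) * z := by
      rw [conj_pow]
      nth_rw 1 [hcz]
      have h2 : β * (α ^ (r - 1) * z) * β⁻¹ = β * α ^ (r - 1) * (z * β⁻¹) := by group
      rw [h2, ← (hZ z hzk β⁻¹).eq]
      group
    rw [h1, hβα, hcα.mul_pow, mul_assoc, ← hcz, ← pow_succ, ← hrr]
  have hkey : ∀ k : ℕ, Commute β (α ^ k) → c ^ k = 1 := by
    intro k hk
    have h1 : β * α ^ k * β⁻¹ = c ^ k * α ^ k := by
      rw [← conj_pow, hβα, hcα.mul_pow]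
    rw [hk.eq, mul_inv_cancel_right] at h1
    exact (mul_eq_right.1 h1.symm)
  have hcm : c ^ m = 1 := by
    refine hkey m (hZ _ ?_ β)
    rw [MonoidHom.mem_ker, map_pow, hα, ← ha, pow_orderOf_eq_one]
  have hyk : (β ^ n)⁻¹ * α ^ t ∈ σ.ker := by
    rw [MonoidHom.mem_ker, map_mul, map_inv, map_pow, map_pow, hα, hβ, hb, inv_mul_cancel]
  have hct : c ^ t = 1 := by
    refine hkey t ?_
    have h1 : α ^ t = β ^ n * ((β ^ n)⁻¹ * α ^ t) := by group
    rw [h1]
    exact ((Commute.refl β).pow_right n).mul_right (hZ _ hyk β)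
  have hSk : ∀ k : ℕ, β ^ k * α * (β ^ k)⁻¹ = c ^ (∑ i ∈ Finset.range k, r ^ i) * α := by
    intro k
    induction k with
    | zero => simp
    | succ k ih =>
      have h1 : β ^ (k + 1) * α * (β ^ (k + 1))⁻¹ = β * (β ^ k * α * (β ^ k)⁻¹) * β⁻¹ := by
        rw [pow_succ']; group
      rw [h1, ih, geom_sum_succ]
      have h2 : β * (c ^ (∑ i ∈ Finset.range k, r ^ i) * α) * β⁻¹ =
          (β * c ^ (∑ i ∈ Finset.range k, r ^ i) * β⁻¹) * (β * α * β⁻¹) := by group
      rw [h2, ← conj_pow, hβc, hβα, ← pow_mul, ← mul_assoc, ← pow_succ]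
  have hcS : c ^ (∑ i ∈ Finset.range n, r ^ i) = 1 := by
    have h1 := hSk n
    have h2 : Commute (β ^ n) α := by
      have h3 : β ^ n = α ^ t * ((β ^ n)⁻¹ * α ^ t)⁻¹ := by group
      rw [h3]
      exact ((Commute.refl α).pow_left t).mul_left
        ((hZ _ hyk α).symm.inv_left)
    rw [h2.eq, mul_inv_cancel_right] at h1
    exact (mul_eq_right.1 h1.symm)
  refine ⟨c, hct, hcm, hcS, ?_⟩
  have htop : closure ({α, β} : Set Γ) ⊔ σ.ker = ⊤ := by
    rw [eq_top_iff]
    intro x _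
    have h1 : σ x ∈ (closure ({α, β} : Set Γ)).map σ := by
      rw [MonoidHom.map_closure]
      have : σ '' {α, β} = {a, b} := by
        rw [Set.image_pair, hα, hβ]
      rw [this, hgen]
      trivial
    obtain ⟨y, hy, hyx⟩ := h1
    have h2 : x = y * (y⁻¹ * x) := by group
    rw [h2]
    refine mul_mem (Subgroup.mem_sup_left hy) (Subgroup.mem_sup_right ?_)
    rw [MonoidHom.mem_ker, map_mul, map_inv, hyx, inv_mul_cancel]
  have hall : ∀ D : Subgroup Γ, α ∈ D → β ∈ D → σ.ker ≤ D → D = ⊤ := by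
    intro D h1 h2 h3
    rw [eq_top_iff, ← htop]
    refine sup_le ?_ h3
    rw [closure_le]
    intro x hx
    simp only [Set.mem_insert_iff, Set.mem_singleton_iff] at hx
    rcases hx with rfl | rfl
    · exact h1
    · exact h2
  haveI hN : (zpowers c).Normal := by
    rw [← Subgroup.normalizer_eq_top_iff]
    haveI := Fintype.ofFinite (zpowers c)
    have hcomm' : ∀ x : Γ, Commute x c → x ∈ Subgroup.normalizer (zpowers c : Set Γ) := by
      intro x hx
      refine Subgroup.mem_normalizer_fintype ?_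
      rintro _ ⟨k, rfl⟩
      show x * c ^ k * x⁻¹ ∈ zpowers c
      rw [(hx.zpow_right k).eq, mul_inv_cancel_right]
      exact zpow_mem (mem_zpowers c) k
    refine hall _ (hcomm' α hcα.symm) ?_ (fun x hx => hcomm' x (hZ x hx c).symm)
    refine Subgroup.mem_normalizer_fintype ?_
    rintro _ ⟨k, rfl⟩
    show β * c ^ k * β⁻¹ ∈ zpowers c
    rw [← conj_zpow, hβc]
    exact zpow_mem (pow_mem (mem_zpowers c) r) k
  have hcommN : commutator Γ ≤ zpowers c := by
    have hkerc : ∀ x ∈ σ.ker, ∀ y : Γ ⧸ zpowers c, Commute y (QuotientGroup.mk x) := by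
      intro x hx y
      obtain ⟨y, rfl⟩ := QuotientGroup.mk_surjective y
      show (_ : Γ ⧸ zpowers c) * _ = _ * _
      rw [← QuotientGroup.mk_mul, ← QuotientGroup.mk_mul, (hZ x hx y).eq]
    have hαβ : Commute (QuotientGroup.mk α : Γ ⧸ zpowers c) (QuotientGroup.mk β) := by
      show (_ : Γ ⧸ zpowers c) * _ = _ * _
      rw [← QuotientGroup.mk_mul, ← QuotientGroup.mk_mul, QuotientGroup.eq]
      have h1 : (α * β)⁻¹ * (β * α) = (β⁻¹ * (α⁻¹ * (β * α * β⁻¹ * α⁻¹) * α) * β) := by group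
      rw [h1, ← hc]
      have h2 : α⁻¹ * c * α = c := by
        rw [mul_assoc, hcα.eq]; group
      rw [h2]
      have := hN.conj_mem c (mem_zpowers c) β⁻¹
      simpa using this
    have h1 : ∀ u : Γ, Commute (QuotientGroup.mk α : Γ ⧸ zpowers c) (QuotientGroup.mk u) →
        Commute (QuotientGroup.mk β : Γ ⧸ zpowers c) (QuotientGroup.mk u) →
        ∀ y : Γ, Commute (QuotientGroup.mk y : Γ ⧸ zpowers c) (QuotientGroup.mk u) := by
      intro u hu1 hu2
      have h2 := hall ((Subgroup.centralizer {(QuotientGroup.mk u : Γ ⧸ zpowers c)}).comap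
        (QuotientGroup.mk' (zpowers c))) (by
          rw [Subgroup.mem_comap, Subgroup.mem_centralizer_singleton_iff]
          exact hu1.eq) (by
          rw [Subgroup.mem_comap, Subgroup.mem_centralizer_singleton_iff]
          exact hu2.eq) (by
          intro x hx
          rw [Subgroup.mem_comap, Subgroup.mem_centralizer_singleton_iff]
          exact (hkerc x hx _).symm.eq)
      intro y
      have h3 : y ∈ ((Subgroup.centralizer {(QuotientGroup.mk u : Γ ⧸ zpowers c)}).comap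
        (QuotientGroup.mk' (zpowers c))) := by rw [h2]; trivial
      rw [Subgroup.mem_comap, Subgroup.mem_centralizer_singleton_iff] at h3
      exact h3
    have hA := h1 α (Commute.refl _) hαβ.symm
    have hB := h1 β hαβ (Commute.refl _)
    have hall' : ∀ x y : Γ, Commute (QuotientGroup.mk y : Γ ⧸ zpowers c) (QuotientGroup.mk x) :=
      fun x => h1 x (hA x).symm (hB x).symm
    rw [commutator_def, Subgroup.commutator_le]
    intro x _ y _
    rw [← QuotientGroup.eq_one_iff]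
    show (QuotientGroup.mk' (zpowers c)) ⁅x, y⁆ = 1
    rw [map_commutatorElement, commutatorElement_eq_one_iff_mul_comm]
    exact (hall' y x).eq
  have hg0 : 0 < Nat.gcd m (r - 1) := Nat.gcd_pos_of_pos_left _ hm0
  apply le_antisymm
  · intro x hx
    obtain ⟨i, hi⟩ := hcommN (hcomm hx)
    simp only at hi
    have h1 : σ x = 1 := hx
    rw [← hi, map_zpow, hσc, ← zpow_natCast, ← zpow_mul, ← orderOf_dvd_iff_zpow_eq_one, ha] at h1
    have h2 : ((m / Nat.gcd m (r - 1) : ℕ) : ℤ) ∣ i := by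
      have e1 : (m : ℤ) = (Nat.gcd m (r - 1) : ℤ) * ((m / Nat.gcd m (r - 1) : ℕ) : ℤ) := by
        exact_mod_cast (Nat.mul_div_cancel' (Nat.gcd_dvd_left m (r - 1))).symm
      have e2 : ((r - 1 : ℕ) : ℤ) = (Nat.gcd m (r - 1) : ℤ) *
          (((r - 1) / Nat.gcd m (r - 1) : ℕ) : ℤ) := by
        exact_mod_cast (Nat.mul_div_cancel' (Nat.gcd_dvd_right m (r - 1))).symm
      rw [e2, mul_assoc] at h1
      nth_rw 1 [e1] at h1
      have h3 := Int.dvd_of_mul_dvd_mul_left (by exact_mod_cast hg0.ne') h1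
      have h4 : IsCoprime ((m / Nat.gcd m (r - 1) : ℕ) : ℤ)
          (((r - 1) / Nat.gcd m (r - 1) : ℕ) : ℤ) :=
        Nat.isCoprime_iff_coprime.2 (Nat.coprime_div_gcd_div_gcd hg0)
      exact h4.dvd_of_dvd_mul_left h3
    obtain ⟨j, rfl⟩ := h2
    rw [← hi, zpow_mul, zpow_natCast]
    exact zpow_mem (mem_zpowers _) j
  · rw [zpowers_le, MonoidHom.mem_ker, map_pow, hσc, ← pow_mul]
    apply orderOf_dvd_iff_pow_eq_one.1
    rw [ha]
    obtain ⟨q, hq⟩ := Nat.gcd_dvd_right m (r - 1)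
    have h6 : (r - 1) * (m / Nat.gcd m (r - 1)) =
        (Nat.gcd m (r - 1) * q) * (m / Nat.gcd m (r - 1)) :=
      congrArg (fun x => x * (m / Nat.gcd m (r - 1))) hq
    rw [h6]
    refine ⟨q, ?_⟩
    rw [mul_right_comm, Nat.mul_div_cancel' (Nat.gcd_dvd_left m (r - 1))]

end Cfsg.Agent.H24
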