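import Cfsg.Agent.H24.OrderType
import Cfsg.Agent.H3.BurnsidePQ
import Cfsg.Agent.H1.Chief

set_option autoImplicit false

/-! # H24/OrderType2: counting elements by order, primes at least five (helper24) -/

namespace Cfsg.Agent.H24

open Subgroup

/-- For every `c ≥ 5`, the number of elements all of whose order-primes are `≥ c` is
the `(≥ c)`-part of the group order. -/
def TC5 (G : Type*) [Group G] : Prop :=
  ∀ c : ℕ, 5 ≤ c → ∃ m m' : ℕ, m * m' = Nat.card G ∧ AllGe c m ∧ AllLt c m' ∧
    Nat.card {g : G // AllGe c (orderOf g)} = m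

theorem TC5.of_equiv {G H : Type*} [Group G] [Group H] (f : G ≃ H)
    (hf : ∀ g, orderOf (f g) = orderOf g) (h : TC5 G) : TC5 H := by
  intro c hc
  obtain ⟨m, m', h1, h2, h3, h4⟩ := h c hc
  refine ⟨m, m', ?_, h2, h3, ?_⟩
  · rw [h1]; exact Nat.card_congr f
  · rw [← h4]; exact (card_subtype_of_orderOf_equiv f hf (AllGe c)).symm

/-- An element whose order has only primes `≥ c > |N|` centralizes the normal subgroup `N`. -/
theorem comm_of_allGe {G : Type*} [Group G] [Finite G] (N : Subgroup G) [N.Normal] {c : ℕ}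
    (hN : Nat.card N < c) (g : G) (hg : AllGe c (orderOf g)) (n : G) (hn : n ∈ N) :
    g * n = n * g := by
  by_contra hcon
  -- the orbit of `n` under `⟨g⟩`
  let φ : MulAut N := MulAut.conjNormal (H := N) g
  have h1 : φ ≠ 1 := by
    intro h
    apply hcon
    have h6 : MulAut.conjNormal (H := N) g ⟨n, hn⟩ = ⟨n, hn⟩ := by
      show φ ⟨n, hn⟩ = _
      rw [h]; rfl
    have h7 : g * n * g⁻¹ = n := by simpa using congrArg Subtype.val h6
    calc g * n = g * n * g⁻¹ * g := by group
      _ = n * g := by rw [h7]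
  obtain ⟨q, hq, hqd⟩ := Nat.exists_prime_and_dvd (fun h => h1 (orderOf_eq_one_iff.1 h) : orderOf φ ≠ 1)
  have h2 : c ≤ q := hg q hq (hqd.trans (orderOf_map_dvd (MulAut.conjNormal (H := N)) g))
  -- an element of order `q` acts nontrivially on `N`
  haveI : Fact q.Prime := ⟨hq⟩
  set ψ := φ ^ (orderOf φ / q) with hψ
  have h3 : orderOf ψ = q := orderOf_pow_orderOf_div (orderOf_pos φ).ne' hqd
  have h4 : (zpowers ψ).index ≠ 0 := Subgroup.index_ne_zero_of_finite
  have hpg : IsPGroup q (zpowers ψ) := IsPGroup.of_card (n := 1) (by rw [Nat.card_zpowers, h3, pow_one])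
  have h5 : ∀ x : N, ψ x = x := by
    intro x
    have h6 := (hpg.card_orbit x : ∃ n, Nat.card (MulAction.orbit (zpowers ψ) x) = q ^ n)
    obtain ⟨n, hn⟩ := h6
    have h7 : Nat.card (MulAction.orbit (zpowers ψ) x) ≤ Nat.card N :=
      Finite.card_subtype_le _
    rcases Nat.eq_zero_or_pos n with h0 | h0
    · rw [h0, pow_zero, Nat.card_eq_one_iff_unique] at hn
      have h8 : (⟨ψ • x, ⟨⟨ψ, mem_zpowers ψ⟩, rfl⟩⟩ : MulAction.orbit (zpowers ψ) x) =
          ⟨x, MulAction.mem_orbit_self x⟩ := hn.1.elim _ _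
      exact congrArg Subtype.val h8
    · exfalso
      have h8 : q ≤ q ^ n := Nat.le_self_pow (by omega) q
      omega
  have h6 : ψ = 1 := by
    ext x
    exact congrArg Subtype.val (h5 x)
  rw [h6, orderOf_one] at h3
  exact hq.one_lt.ne h3

/-- `TC5` for `G` from that of the quotient by a small normal subgroup. -/
theorem TC5.of_quotient_small {G : Type*} [Group G] [Finite G] (N : Subgroup G) [N.Normal]
    {r a : ℕ} (hr : r.Prime) (hN : Nat.card N = r ^ a) (hsm : ∀ c : ℕ, 5 ≤ c → r < c → r ^ a < c)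
    (h : TC5 (G ⧸ N)) : TC5 G := by
  classical
  have hfr : Fact r.Prime := ⟨hr⟩
  intro c hc5
  obtain ⟨m, m', h1, h2, h3, h4⟩ := h c hc5
  have hcard : Nat.card G = Nat.card (G ⧸ N) * Nat.card N := Subgroup.card_eq_card_quotient_mul_card_subgroup N
  by_cases hc : c ≤ r
  · refine ⟨r ^ a * m, m', ?_, ?_, h3, ?_⟩
    · rw [hcard, hN, ← h1]; ring
    · intro q hq hd
      rcases (Nat.Prime.dvd_mul hq).1 hd with h | h
      · rw [(Nat.prime_dvd_prime_iff_eq hq hr).1 (hq.dvd_of_dvd_pow h)]; exact hc
      · exact h2 q hq h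
    · have hNge : AllGe c (Nat.card N) := by
        intro q hq hd
        rw [hN] at hd
        rw [(Nat.prime_dvd_prime_iff_eq hq hr).1 (hq.dvd_of_dvd_pow hd)]; exact hc
      have := card_preimage_quotient N (fun x => AllGe c (orderOf x))
      rw [h4, hN] at this
      rw [← this]
      exact Nat.card_congr (Equiv.subtypeEquivRight (fun g => allGe_orderOf_mk_iff N hNge g))
  · push Not at hc
    refine ⟨m, r ^ a * m', ?_, h2, ?_, ?_⟩
    · rw [hcard, hN, ← h1]; ring
    · intro q hq hd
      rcases (Nat.Prime.dvd_mul hq).1 hd with h | h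
      · rw [(Nat.prime_dvd_prime_iff_eq hq hr).1 (hq.dvd_of_dvd_pow h)]; exact hc
      · exact h3 q hq h
    · rw [← h4]
      -- `(≥ c)`-elements centralize `N`
      have hcent : ∀ g : G, AllGe c (orderOf g) → ∀ n ∈ N, g * n = n * g := by
        intro g hg n hn
        exact comm_of_allGe N (by rw [hN]; exact hsm c hc5 hc) g hg n hn
      have hrm : ∀ g : G, AllGe c (orderOf g) → ¬ r ∣ orderOf g := by
        intro g hg hd
        have := hg r hr hd
        omega
      refine Nat.card_congr (Equiv.ofBijective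
        (fun g : {g : G // AllGe c (orderOf g)} =>
          (⟨(QuotientGroup.mk g.1 : G ⧸ N), fun q hq hd =>
            g.2 q hq (hd.trans (orderOf_map_dvd (QuotientGroup.mk' N) g.1))⟩ :
            {x : G ⧸ N // AllGe c (orderOf x)})) ⟨?_, ?_⟩)
      · rintro ⟨g, hg⟩ ⟨g', hg'⟩ heq
        have h5 : (QuotientGroup.mk g : G ⧸ N) = QuotientGroup.mk g' := congrArg Subtype.val heq
        rw [QuotientGroup.eq] at h5
        set n := g⁻¹ * g' with hn
        have h6 : g' = g * n := by rw [hn]; group
        have hcomm : Commute g n := hcent g hg n h5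
        have h7 : n ^ (orderOf g * orderOf g') = 1 := by
          have h8 : g' ^ (orderOf g * orderOf g') = 1 := by
            rw [mul_comm, pow_mul, pow_orderOf_eq_one, one_pow]
          rw [h6, hcomm.mul_pow, ← h6, pow_mul, pow_orderOf_eq_one, one_pow, one_mul] at h8
          exact h8
        have h8 : orderOf n ∣ orderOf g * orderOf g' := orderOf_dvd_of_pow_eq_one h7
        have h9 : orderOf n ∣ r ^ a := by
          have := Subgroup.orderOf_dvd_natCard N h5
          rwa [hN] at this
        have h10 : orderOf n = 1 := by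
          by_contra hne
          obtain ⟨q, hq, hqd⟩ := Nat.exists_prime_and_dvd hne
          have h11 : q = r := (Nat.prime_dvd_prime_iff_eq hq hr).1 (hq.dvd_of_dvd_pow (hqd.trans h9))
          subst h11
          rcases (Nat.Prime.dvd_mul hq).1 (hqd.trans h8) with h | h
          · exact hrm g hg h
          · exact hrm g' hg' h
        rw [orderOf_eq_one_iff] at h10
        apply Subtype.ext
        show g = g'
        rw [h6, h10, mul_one]
      · rintro ⟨x, hx⟩
        obtain ⟨g, rfl⟩ := QuotientGroup.mk_surjective x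
        set k := orderOf (QuotientGroup.mk g : G ⧸ N) with hk
        have hrk : Nat.Coprime k (r ^ a) := by
          apply Nat.Coprime.pow_right
          rw [Nat.coprime_comm, Nat.Prime.coprime_iff_not_dvd hr]
          intro hd
          have := hx r hr hd
          omega
        obtain ⟨j, hj1, hj2⟩ := Nat.chineseRemainder hrk 1 0
        have h5 : g ^ k ∈ N := by
          rw [← QuotientGroup.eq_one_iff, QuotientGroup.mk_pow, hk, pow_orderOf_eq_one]
        have h6 : g ^ (k * r ^ a) = 1 := by
          rw [pow_mul, ← hN]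
          exact congrArg Subtype.val (pow_card_eq_one' (x := (⟨_, h5⟩ : N)))
        have h7 : (g ^ j) ^ k = 1 := by
          obtain ⟨i, hi⟩ := (Nat.modEq_zero_iff_dvd).1 hj2
          rw [← pow_mul, hi, show r ^ a * i * k = (k * r ^ a) * i by ring, pow_mul, h6, one_pow]
        refine ⟨⟨g ^ j, fun q hq hd => hx q hq (hd.trans (orderOf_dvd_of_pow_eq_one h7))⟩, ?_⟩
        apply Subtype.ext
        show (QuotientGroup.mk (g ^ j) : G ⧸ N) = QuotientGroup.mk g
        rw [QuotientGroup.mk_pow]
        have h8 : (QuotientGroup.mk g : G ⧸ N) ^ j = (QuotientGroup.mk g : G ⧸ N) ^ 1 := by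
          rw [pow_eq_pow_iff_modEq]
          exact hj1
        rw [h8, pow_one]

theorem TC5.of_card_eq_one {G : Type*} [Group G] (h : Nat.card G = 1) : TC5 G := by
  have : Subsingleton G := (Nat.card_eq_one_iff_unique.1 h).1
  intro c _
  refine ⟨1, 1, by rw [h], ?_, ?_, ?_⟩
  · intro q hq hd; exact absurd (Nat.dvd_one.1 hd) hq.ne_one
  · intro q hq hd; exact absurd (Nat.dvd_one.1 hd) hq.ne_one
  · rw [Nat.card_eq_one_iff_unique]
    refine ⟨inferInstance, ⟨⟨1, ?_⟩⟩⟩
    intro q hq hd
    rw [orderOf_one] at hd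
    exact absurd (Nat.dvd_one.1 hd) hq.ne_one


end Cfsg.Agent.H24
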