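import Cfsg.Agent.H24.OrderType2
import Cfsg.Agent.H25.FrobSylow

set_option autoImplicit false

/-! # H24/OrderType3: solvability from element counts (helper24) -/

namespace Cfsg.Agent.H24

open Subgroup
/-- A finite group with `TC5` is solvable. -/
theorem TC5.isSolvable {G : Type*} [Group G] [Finite G] (h : TC5 G) :
    Group.IsSolvable G := by
  classical
  suffices H : ∀ (n : ℕ) (G : Type _) [Group G] [Finite G], Nat.card G = n → TC5 G →
      Group.IsSolvable G from H _ G rfl h
  intro n
  induction n using Nat.strong_induction_on with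
  | _ n ih =>
    intro G _ _ hn hT
    by_cases h1 : Nat.card G = 1
    · have : Subsingleton G := (Nat.card_eq_one_iff_unique.1 h1).1
      infer_instance
    -- the largest prime
    have hne : (Nat.card G).primeFactors.Nonempty := by
      rw [Nat.nonempty_primeFactors]
      have := Nat.card_pos (α := G)
      omega
    set p := (Nat.card G).primeFactors.max' hne with hp_def
    have hpmem : p ∈ (Nat.card G).primeFactors := Finset.max'_mem _ hne
    have hp : p.Prime := Nat.prime_of_mem_primeFactors hpmem
    have hfp : Fact p.Prime := ⟨hp⟩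
    have hpd : p ∣ Nat.card G := Nat.dvd_of_mem_primeFactors hpmem
    have hmax : ∀ q : ℕ, q.Prime → q ∣ Nat.card G → q ≤ p := by
      intro q hq hd
      exact Finset.le_max' _ _ (Nat.mem_primeFactors.2 ⟨hq, hd, Nat.card_pos.ne'⟩)
    by_cases hp5 : 5 ≤ p
    swap
    · -- a `{2,3}`-group
      refine Cfsg.Agent.H3.burnside_paqb 2 3 Nat.prime_two Nat.prime_three _ G rfl ?_
      intro r hr hrd
      have h2 := hmax r hr hrd
      have h3 := hr.two_le
      have h4 : r ≠ 4 := by rintro rfl; revert hr; decide
      omega
    obtain ⟨m, m', e1, e2, e3, e4⟩ := hT p hp5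
    let P : Sylow p G := default
    -- card P = m
    have hPcard : Nat.card P = m := by
      have h5 := Subgroup.card_mul_index (P : Subgroup G)
      refine part_unique (c := p) (m' := (P : Subgroup G).index) (n' := m') ?_ ?_ ?_ e2 e3
      · rw [h5, e1]
      · intro q hq hd
        obtain ⟨k, hk⟩ := P.isPGroup'.exists_card_eq
        rw [hk] at hd
        exact ((Nat.prime_dvd_prime_iff_eq hq hp).1 (hq.dvd_of_dvd_pow hd)).ge
      · intro q hq hd
        have h6 := hmax q hq (hd.trans (Subgroup.index_dvd_card _))
        refine lt_of_le_of_ne h6 ?_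
        rintro rfl
        exact P.not_dvd_index hd
    have hPsub : ∀ g ∈ P, AllGe p (orderOf g) := by
      intro g hg q hq hd
      have h6 := hd.trans (Subgroup.orderOf_dvd_natCard (P : Subgroup G) hg)
      obtain ⟨k, hk⟩ := P.isPGroup'.exists_card_eq
      rw [hk] at h6
      exact ((Nat.prime_dvd_prime_iff_eq hq hp).1 (hq.dvd_of_dvd_pow h6)).ge
    have hPeq : ∀ g : G, AllGe p (orderOf g) → g ∈ P := by
      have hsub : (P : Set G) ⊆ {g : G | AllGe p (orderOf g)} := hPsub
      have h6 : (P : Set G) = {g : G | AllGe p (orderOf g)} := by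
        apply Set.eq_of_subset_of_ncard_le hsub _ (Set.toFinite _)
        have h7 : ({g : G | AllGe p (orderOf g)} : Set G).ncard = m := by
          rw [← Nat.card_coe_set_eq]; exact e4
        have h8 : (P : Set G).ncard = m := by
          rw [← Nat.card_coe_set_eq]; exact hPcard
        rw [h7, h8]
      intro g hg
      have : g ∈ (P : Set G) := by rw [h6]; exact hg
      exact this
    have hPn : (P : Subgroup G).Normal := by
      constructor
      intro n hn g
      apply hPeq
      have h7 : orderOf (g * n * g⁻¹) = orderOf n := by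
        have := MulEquiv.orderOf_eq (MulAut.conj g) n
        simpa using this
      rw [h7]
      exact hPsub n hn
    have hPgt : 1 < Nat.card P := by
      have h8 : p ∣ Nat.card P := by
        rw [hPcard]
        rcases (Nat.Prime.dvd_mul hp).1 (e1 ▸ hpd) with h | h
        · exact h
        · exact absurd (e3 p hp h) (lt_irrefl _)
      exact lt_of_lt_of_le hp.one_lt (Nat.le_of_dvd Nat.card_pos h8)
    have hTq : TC5 (G ⧸ (P : Subgroup G)) := by
      intro c hc5
      have hcard : Nat.card G = Nat.card (G ⧸ (P : Subgroup G)) * Nat.card P :=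
        Subgroup.card_eq_card_quotient_mul_card_subgroup _
      by_cases hc : c ≤ p
      · obtain ⟨a, a', f1, f2, f3, f4⟩ := hT c hc5
        have hNge : AllGe c (Nat.card P) := by
          intro q hq hd
          obtain ⟨k, hk⟩ := P.isPGroup'.exists_card_eq
          rw [hk] at hd
          rw [((Nat.prime_dvd_prime_iff_eq hq hp).1 (hq.dvd_of_dvd_pow hd))]
          exact hc
        have h9 := card_preimage_quotient (P : Subgroup G) (fun x => AllGe c (orderOf x))
        have h10 : Nat.card {g : G // AllGe c (orderOf g)} =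
            Nat.card P * Nat.card {x : G ⧸ (P : Subgroup G) // AllGe c (orderOf x)} := by
          have h10 := Nat.card_congr (Equiv.subtypeEquivRight
            (fun g => allGe_orderOf_mk_iff (P : Subgroup G) hNge g))
          rw [h10]
          exact h9
        refine ⟨Nat.card {x : G ⧸ (P : Subgroup G) // AllGe c (orderOf x)}, a', ?_, ?_, f3, rfl⟩
        · have h11 : Nat.card P * (Nat.card {x : G ⧸ (P : Subgroup G) // AllGe c (orderOf x)} * a')
              = Nat.card P * Nat.card (G ⧸ (P : Subgroup G)) := by
            rw [← mul_assoc, ← h10, f4, f1, hcard]; ring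
          exact Nat.eq_of_mul_eq_mul_left (by omega) h11
        · intro q hq hd
          refine f2 q hq ?_
          rw [← f4, h10]
          exact hd.mul_left _
      · push Not at hc
        refine ⟨1, Nat.card (G ⧸ (P : Subgroup G)), one_mul _, ?_, ?_, ?_⟩
        · intro q hq hd; exact absurd (Nat.dvd_one.1 hd) hq.ne_one
        · intro q hq hd
          exact lt_of_le_of_lt (hmax q hq (hd.trans (Subgroup.card_quotient_dvd_card _))) hc
        · rw [Nat.card_eq_one_iff_unique]
          refine ⟨⟨?_⟩, ⟨⟨1, ?_⟩⟩⟩
          · have key : ∀ x : G ⧸ (P : Subgroup G), AllGe c (orderOf x) → x = 1 := by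
              intro x hx
              by_contra hx1
              obtain ⟨q, hq, hd⟩ := Nat.exists_prime_and_dvd
                (fun h => hx1 (orderOf_eq_one_iff.1 h) : orderOf x ≠ 1)
              have h12 := hx q hq hd
              have h13 := hmax q hq ((hd.trans (orderOf_dvd_natCard x)).trans
                (Subgroup.card_quotient_dvd_card _))
              omega
            rintro ⟨x, hx⟩ ⟨y, hy⟩
            apply Subtype.ext
            show x = y
            rw [key x hx, key y hy]
          · intro q hq hd
            rw [orderOf_one] at hd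
            exact absurd (Nat.dvd_one.1 hd) hq.ne_one
    have hlt : Nat.card (G ⧸ (P : Subgroup G)) < n := by
      rw [← hn, Subgroup.card_eq_card_quotient_mul_card_subgroup (P : Subgroup G)]
      have h12 : 0 < Nat.card (G ⧸ (P : Subgroup G)) := Nat.card_pos
      change _ < _ * Nat.card P
      nlinarith
    have hs1 : Group.IsSolvable (G ⧸ (P : Subgroup G)) := ih _ hlt _ rfl hTq
    have hs2 : Group.IsSolvable (P : Subgroup G) := by
      have : Group.IsNilpotent (P : Subgroup G) := P.isPGroup'.isNilpotent
      infer_instance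
    exact Group.isSolvable_of_ker_le_range (P : Subgroup G).subtype (QuotientGroup.mk' (P : Subgroup G))
      (by rw [QuotientGroup.ker_mk', Subgroup.range_subtype])


/-- Subgroups of prime power order are cyclic for odd primes and two-generated for `2`. -/
def Cl5 (H : Type*) [Group H] : Prop :=
  ∀ s : ℕ, s.Prime → ∀ Q : Subgroup H, IsPGroup s Q →
    (s ≠ 2 → ∃ x, Q = zpowers x) ∧ ∃ x y, Q = Subgroup.closure {x, y}

theorem Cl5.quotient {H : Type*} [Group H] [Finite H] (h : Cl5 H) (N : Subgroup H) [N.Normal] :
    Cl5 (H ⧸ N) := by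
  intro s hs Q hQ
  haveI : Fact s.Prime := ⟨hs⟩
  obtain ⟨S, hS⟩ := hQ.exists_le_sylow
  obtain ⟨P, hP⟩ := Sylow.mapSurjective_surjective (QuotientGroup.mk'_surjective N) s S
  have hPS : (P : Subgroup H).map (QuotientGroup.mk' N) = (S : Subgroup (H ⧸ N)) := by
    rw [← hP]; rfl
  set R := (P : Subgroup H) ⊓ Q.comap (QuotientGroup.mk' N) with hR
  have hRQ : R.map (QuotientGroup.mk' N) = Q := by
    apply le_antisymm
    · rintro _ ⟨x, hx, rfl⟩
      exact (Subgroup.mem_inf.1 hx).2
    · intro y hy
      have h1 := hS hy
      rw [← hPS] at h1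
      obtain ⟨x, hx, rfl⟩ := Subgroup.mem_map.1 h1
      exact Subgroup.mem_map.2 ⟨x, Subgroup.mem_inf.2 ⟨hx, hy⟩, rfl⟩
  have hRp : IsPGroup s R := P.isPGroup'.to_le inf_le_left
  obtain ⟨h1, x, y, hxy⟩ := h s hs R hRp
  refine ⟨fun hs2 => ?_, ?_⟩
  · obtain ⟨x, hx⟩ := h1 hs2
    refine ⟨QuotientGroup.mk' N x, ?_⟩
    rw [← hRQ, hx, MonoidHom.map_zpowers]
  · refine ⟨QuotientGroup.mk' N x, QuotientGroup.mk' N y, ?_⟩
    rw [← hRQ, hxy, MonoidHom.map_closure, Set.image_pair]

theorem Cl5.tc5 (n : ℕ) : ∀ (H : Type*) [Group H] [Finite H], Nat.card H = n →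
    Group.IsSolvable H → Cl5 H → TC5 H := by
  induction n using Nat.strong_induction_on with
  | _ n ih =>
  intro H _ _ hn hsol hcl
  by_cases h1 : Nat.card H = 1
  · exact TC5.of_card_eq_one h1
  haveI := hsol
  have htop : (⊤ : Subgroup H) ≠ ⊥ := by
    intro h
    apply h1
    rw [← Subgroup.card_top (G := H), h, Subgroup.card_bot]
  obtain ⟨M, hM, hMb, -, hmin⟩ := H1.exists_minimal_normal_le (inferInstance : (⊤ : Subgroup H).Normal) htop
  haveI := hM
  obtain ⟨hMc, s, hs, hMs, hMe⟩ := H1.minimal_normal_solvable hM hMb hmin inferInstance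
  haveI : Fact s.Prime := ⟨hs⟩
  have hlt : Nat.card (H ⧸ M) < n := by
    rw [← hn, ← Subgroup.index_eq_card]
    have h2 := Subgroup.card_mul_index M
    have h3 : 1 < Nat.card M := (Subgroup.one_lt_card_iff_ne_bot M).2 hMb
    have h4 : 0 < M.index := Nat.pos_of_ne_zero Subgroup.index_ne_zero_of_finite
    nlinarith
  obtain ⟨a, ha⟩ := IsPGroup.iff_card.1 hMs
  refine TC5.of_quotient_small M hs ha ?_ (ih _ hlt (H ⧸ M) rfl inferInstance (hcl.quotient M))
  intro c hc5 hsc
  rw [← ha]
  obtain ⟨h5, x, y, hxy⟩ := hcl s hs M hMs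
  by_cases hs2 : s = 2
  · subst hs2
    have hx : x ∈ M := by rw [hxy]; exact subset_closure (by simp)
    have hy : y ∈ M := by rw [hxy]; exact subset_closure (by simp)
    have hx2 := hMe x hx
    have hy2 := hMe y hy
    have hcomm : x * y = y * x := by
      have := hMc.is_comm.comm (⟨x, hx⟩ : M) ⟨y, hy⟩
      exact congrArg Subtype.val this
    -- `M ⊆ {1, x, y, xy}`
    have h6 : ∀ z ∈ M, z = 1 ∨ z = x ∨ z = y ∨ z = x * y := by
      intro z hz
      rw [hxy] at hz
      have hx3 : x * x = 1 := by rw [← pow_two]; exact hx2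
      have hy3 : y * y = 1 := by rw [← pow_two]; exact hy2
      have hxi : x⁻¹ = x := inv_eq_of_mul_eq_one_left hx3
      have hyi : y⁻¹ = y := inv_eq_of_mul_eq_one_left hy3
      have e1 : x * (x * y) = y := by rw [← mul_assoc, hx3, one_mul]
      have e2 : y * (x * y) = x := by rw [hcomm, ← mul_assoc, hy3, one_mul]
      have e3 : (x * y) * x = y := by rw [hcomm, mul_assoc, hx3, mul_one]
      have e4 : (x * y) * y = x := by rw [mul_assoc, hy3, mul_one]
      have e5 : (x * y) * (x * y) = 1 := by rw [← mul_assoc, e3, hy3]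
      induction hz using closure_induction with
      | mem z hz =>
        rcases hz with rfl | hz
        · right; left; rfl
        · right; right; left; exact hz
      | one => left; rfl
      | mul z w _ _ hz hw =>
        rcases hz with rfl | rfl | rfl | rfl <;> rcases hw with rfl | rfl | rfl | rfl <;>
          simp_all
      | inv z _ hz =>
        rcases hz with rfl | rfl | rfl | rfl
        · left; simp
        · right; left; exact hxi
        · right; right; left; exact hyi
        · right; right; right; rw [mul_inv_rev, hxi, hyi, hcomm]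
    have h7 : (M : Set H) ⊆ {1, x, y, x * y} := by
      intro z hz
      rcases h6 z hz with h | h | h | h <;> rw [h] <;> simp
    have h8 : Nat.card M ≤ 4 := by
      have h9 : Nat.card M = (M : Set H).ncard := (Nat.card_coe_set_eq _)
      rw [h9]
      refine (Set.ncard_le_ncard h7 (Set.toFinite _)).trans ?_
      refine (Set.ncard_insert_le _ _).trans ?_
      have := (Set.ncard_insert_le x ({y, x * y} : Set H))
      have h10 := Set.ncard_insert_le y ({x * y} : Set H)
      rw [Set.ncard_singleton] at h10
      omega
    omega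
  · obtain ⟨x, hx⟩ := h5 hs2
    have h6 : Nat.card M ∣ s := by
      rw [hx, Nat.card_zpowers]
      exact orderOf_dvd_of_pow_eq_one (hMe x (by rw [hx]; exact mem_zpowers x))
    exact lt_of_le_of_lt (Nat.le_of_dvd hs.pos h6) hsc

end Cfsg.Agent.H24
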