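import Cfsg.Agent.H24.OrderType3
import Cfsg.Agent.H24.MaxNil
import Cfsg.Agent.H10.Basic
import Cfsg.Agent.H20.Fpf2
import Cfsg.Agent.H1.FrobQuot
import Cfsg.Agent.H1.FrobComp
import Cfsg.Agent.H1.Hall

set_option autoImplicit false

/-! # H24/OrderType4: groups with the same order type as a Frobenius group (helper24) -/

namespace Cfsg.Agent.H24

open Cfsg Subgroup
open scoped Pointwise

universe u v

/-- Frobenius complements satisfy `Cl5`. -/
theorem cl5_of_frob {F : Type u} [Group F] [Finite F] {C : Subgroup F}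
    (hC : IsFrobeniusComplement C) : Cl5 C := by
  intro s hs Q hQ
  haveI : Fact s.Prime := ⟨hs⟩
  have hcases := H25.frob_pgroup hC hQ ((C.subtype).comp Q.subtype)
    (C.subtype_injective.comp Q.subtype_injective) (fun x => (x : C).2)
  have hcyc : IsCyclic Q → (∃ x, Q = zpowers x) := by
    intro h
    obtain ⟨x, hx⟩ := h.exists_generator
    refine ⟨(x : C), ?_⟩
    apply le_antisymm
    · intro y hy
      obtain ⟨j, hj⟩ := Subgroup.mem_zpowers_iff.1 (hx ⟨y, hy⟩)
      refine Subgroup.mem_zpowers_iff.2 ⟨j, ?_⟩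
      exact congrArg Subtype.val hj
    · rw [zpowers_le]; exact x.2
  rcases hcases with h | ⟨hs2, n, hn, ⟨e⟩⟩
  · obtain ⟨x, hx⟩ := hcyc h
    refine ⟨fun _ => ⟨x, hx⟩, x, x, ?_⟩
    rw [Set.pair_eq_singleton, ← zpowers_eq_closure]; exact hx
  · refine ⟨fun h => absurd hs2 h, ?_⟩
    refine ⟨(e.symm (QuaternionGroup.a 1) : Q), (e.symm (QuaternionGroup.xa 0) : Q), ?_⟩
    apply le_antisymm
    · intro y hy
      have key : ∀ z : QuaternionGroup (2 ^ n), ((e.symm z : Q) : C) ∈
          Subgroup.closure {((e.symm (QuaternionGroup.a 1) : Q) : C), ((e.symm (QuaternionGroup.xa 0) : Q) : C)} := by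
        have ha : ∀ i : ZMod (2 * 2 ^ n), ((e.symm (QuaternionGroup.a i) : Q) : C) ∈
          Subgroup.closure {((e.symm (QuaternionGroup.a 1) : Q) : C), ((e.symm (QuaternionGroup.xa 0) : Q) : C)} := by
          intro i
          have h1 : (QuaternionGroup.a i : QuaternionGroup (2 ^ n)) = (QuaternionGroup.a 1) ^ (i.val) := by
            rw [QuaternionGroup.a_one_pow, ZMod.natCast_zmod_val]
          rw [h1, map_pow]
          exact pow_mem (Subgroup.subset_closure (by simp)) _
        intro z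
        rcases z with i | i
        · exact ha i
        · have h1 : (QuaternionGroup.xa i : QuaternionGroup (2 ^ n)) =
              QuaternionGroup.xa 0 * QuaternionGroup.a i := by
            rw [QuaternionGroup.xa_mul_a, zero_add]
          rw [h1, map_mul]
          exact mul_mem (Subgroup.subset_closure (by simp)) (ha i)
      have h2 := key (e ⟨y, hy⟩)
      rwa [e.symm_apply_apply] at h2
    · rw [closure_le]
      rintro z (rfl | hz)
      · exact (e.symm (QuaternionGroup.a 1)).2
      · rw [Set.mem_singleton_iff.1 hz]; exact (e.symm (QuaternionGroup.xa 0)).2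

/-- the order of the image in the quotient by a normal Hall subgroup -/
theorem orderOf_mk_hall {G : Type u} [Group G] [Finite G] (N : Subgroup G) [N.Normal]
    (hcop : (Nat.card N).Coprime N.index) (g : G) :
    orderOf (QuotientGroup.mk g : G ⧸ N) = orderOf g / Nat.gcd (orderOf g) (Nat.card N) := by
  set m := orderOf (QuotientGroup.mk g : G ⧸ N) with hm
  have h1 : m ∣ orderOf g := orderOf_map_dvd (QuotientGroup.mk' N) g
  obtain ⟨t, ht⟩ := h1
  have h2 : g ^ m ∈ N := by
    rw [← QuotientGroup.eq_one_iff, QuotientGroup.mk_pow, hm, pow_orderOf_eq_one]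
  have h3 : g ^ (m * Nat.card N) = 1 := by
    rw [pow_mul]
    exact congrArg Subtype.val (pow_card_eq_one' (x := (⟨_, h2⟩ : N)))
  have hm0 : 0 < m := orderOf_pos _
  have h4 : t ∣ Nat.card N := by
    have h5 := orderOf_dvd_of_pow_eq_one h3
    rw [ht] at h5
    exact Nat.dvd_of_mul_dvd_mul_left hm0 h5
  have h5 : Nat.Coprime m (Nat.card N) := by
    have h6 : m ∣ N.index := by
      rw [Subgroup.index_eq_card]; exact orderOf_dvd_natCard _
    exact (Nat.Coprime.coprime_dvd_right h6 hcop).symm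
  have h6 : Nat.gcd (orderOf g) (Nat.card N) = t := by
    rw [ht, Nat.Coprime.gcd_mul_left_cancel _ h5]
    exact Nat.gcd_eq_left h4
  rw [h6, ht]
  have ht0 : 0 < t := Nat.pos_of_dvd_of_pos h4 Nat.card_pos
  exact (Nat.mul_div_cancel m ht0).symm

/-- normal Sylow subgroups for all primes dividing a Hall divisor give a normal Hall subgroup -/
theorem exists_normal_hall {G : Type u} [Group G] [Finite G] (k : ℕ) :
    k ∣ Nat.card G → k.Coprime (Nat.card G / k) →
    (∀ s : ℕ, s.Prime → s ∣ k → ∃ S : Sylow s G, (S : Subgroup G).Normal) →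
    ∃ N : Subgroup G, N.Normal ∧ Nat.card N = k ∧ Group.IsSolvable N := by
  induction k using Nat.strong_induction_on with
  | _ k ih =>
  intro hk hcop hS
  have hk0 : 0 < k := Nat.pos_of_dvd_of_pos hk Nat.card_pos
  by_cases h1 : k = 1
  · subst h1
    exact ⟨⊥, inferInstance, Subgroup.card_bot, inferInstance⟩
  obtain ⟨s, hs, hsk⟩ := Nat.exists_prime_and_dvd h1
  haveI : Fact s.Prime := ⟨hs⟩
  obtain ⟨a, k', hk', hkk⟩ := Nat.exists_eq_pow_mul_and_not_dvd hk0.ne' s hs.ne_one
  have ha : a ≠ 0 := by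
    rintro rfl
    rw [pow_zero, one_mul] at hkk
    exact hk' (hkk ▸ hsk)
  have hlt : k' < k := by
    rw [hkk]
    have h2 : 1 < s ^ a := Nat.one_lt_pow ha hs.one_lt
    have h3 : 0 < k' := Nat.pos_of_ne_zero (by rintro rfl; simp at hk')
    nlinarith
  have hk'k : k' ∣ k := ⟨s ^ a, by rw [hkk]; ring⟩
  obtain ⟨w, hw⟩ := hk
  have hw' : Nat.card G / k = w := by rw [hw, Nat.mul_div_cancel_left _ hk0]
  rw [hw'] at hcop
  have hsa : Nat.Coprime (s ^ a) k' := Nat.Coprime.pow_left _ ((Nat.Prime.coprime_iff_not_dvd hs).2 hk')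
  have hk'0 : 0 < k' := Nat.pos_of_ne_zero (by rintro rfl; simp at hk')
  obtain ⟨N', hN', hN'c, hN's⟩ := ih k' hlt (hk'k.trans ⟨w, hw⟩) (by
    have h2 : Nat.card G / k' = s ^ a * w := by
      rw [hw, hkk, show s ^ a * k' * w = k' * (s ^ a * w) by ring, Nat.mul_div_cancel_left _ hk'0]
    rw [h2]
    exact Nat.Coprime.mul_right hsa.symm (Nat.Coprime.coprime_dvd_left hk'k hcop))
    (fun r hr hrk => hS r hr (hrk.trans hk'k))
  obtain ⟨S, hSn⟩ := hS s hs hsk
  haveI := hSn
  haveI := hN'
  have hSc : Nat.card (S : Subgroup G) = s ^ a := by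
    rw [S.card_eq_multiplicity, hw, hkk]
    congr 1
    rw [Nat.factorization_mul (Nat.mul_ne_zero (pow_ne_zero _ hs.pos.ne') hk'0.ne') (by
      rintro rfl
      rw [mul_zero] at hw
      exact Nat.card_pos.ne' hw), Nat.factorization_mul (pow_ne_zero _ hs.pos.ne') hk'0.ne']
    simp only [Finsupp.coe_add, Pi.add_apply]
    rw [Nat.Prime.factorization_pow hs, Nat.factorization_eq_zero_of_not_dvd hk',
      Nat.factorization_eq_zero_of_not_dvd (n := w)]
    · simp
    · intro h
      have h2 := Nat.dvd_gcd hsk h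
      rw [hcop] at h2
      exact hs.one_lt.ne' (Nat.dvd_one.1 h2)
  refine ⟨(S : Subgroup G) ⊔ N', inferInstance, ?_, ?_⟩
  · have h2 := H1.card_sup_mul_card_inf_of_le_normalizer (H := (S : Subgroup G)) (K := N')
      (by rw [Subgroup.normalizer_eq_top]; exact le_top)
    have h3 : (S : Subgroup G) ⊓ N' = ⊥ := by
      apply Subgroup.inf_eq_bot_of_coprime
      rw [hSc, hN'c]; exact hsa
    rw [h3, Subgroup.card_bot, mul_one, hSc, hN'c] at h2
    rw [h2, hkk]
  · apply H10.sup_isSolvable _ hN's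
    haveI : Group.IsNilpotent (S : Subgroup G) := S.isPGroup'.isNilpotent
    infer_instance

/-- If the number of `s`-elements is the order of a Sylow subgroup then it is normal. -/
theorem sylow_normal_of_count {G : Type u} [Group G] [Finite G] {s : ℕ} [hs : Fact s.Prime]
    (S : Sylow s G) (h : Nat.card {g : G // ∃ j, orderOf g = s ^ j} = Nat.card (S : Subgroup G)) :
    (S : Subgroup G).Normal := by
  have hsub : ((S : Subgroup G) : Set G) ⊆ {g : G | ∃ j, orderOf g = s ^ j} := by
    intro g hg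
    obtain ⟨j, hj⟩ := IsPGroup.iff_orderOf.1 S.isPGroup' ⟨g, hg⟩
    exact ⟨j, by rw [← hj, Subgroup.orderOf_mk]⟩
  have heq : ((S : Subgroup G) : Set G) = {g : G | ∃ j, orderOf g = s ^ j} := by
    apply Set.eq_of_subset_of_ncard_le hsub _ (Set.toFinite _)
    rw [← Nat.card_coe_set_eq, ← Nat.card_coe_set_eq]
    exact h.le
  constructor
  intro n hn g
  have h1 : g * n * g⁻¹ ∈ {g : G | ∃ j, orderOf g = s ^ j} := by
    obtain ⟨j, hj⟩ := hsub hn
    refine ⟨j, ?_⟩
    rw [← hj]
    have := MulEquiv.orderOf_eq (MulAut.conj g) n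
    simpa using this
  rw [← heq] at h1
  exact h1

theorem count_of_sylow_normal {G : Type u} [Group G] [Finite G] {s : ℕ} [hs : Fact s.Prime]
    (S : Sylow s G) (h : (S : Subgroup G).Normal) :
    Nat.card {g : G // ∃ j, orderOf g = s ^ j} = Nat.card (S : Subgroup G) := by
  apply Nat.card_congr
  refine Equiv.subtypeEquivRight (fun g => ⟨?_, ?_⟩)
  · rintro ⟨j, hj⟩
    have h2 : IsPGroup s (zpowers g) := IsPGroup.of_card (n := j) (by rw [Nat.card_zpowers, hj])
    haveI := h
    obtain ⟨T, hT⟩ := h2.exists_le_sylow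
    have h3 : T = S := by
      haveI := S.unique_of_normal h
      exact Subsingleton.elim _ _
    rw [h3] at hT
    exact hT (mem_zpowers g)
  · intro hg
    obtain ⟨j, hj⟩ := IsPGroup.iff_orderOf.1 S.isPGroup' ⟨g, hg⟩
    exact ⟨j, by rw [← hj, Subgroup.orderOf_mk]⟩

end Cfsg.Agent.H24
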