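import Cfsg.Prelude.Def_SolvableStructure
import Cfsg.Agent.H24.OrderType

set_option autoImplicit false

/-! # H24/Supersolvable: quotients, a normal subgroup of prime order, tower count -/

namespace Cfsg.Agent.H24

open Subgroup Cfsg

/-- quotients of supersolvable groups are supersolvable. -/
theorem IsSupersolvable.quotient {G : Type*} [Group G] (N : Subgroup G) [N.Normal]
    (h : Cfsg.IsSupersolvable G) : Cfsg.IsSupersolvable (G ⧸ N) := by
  obtain ⟨n, H, h0, h1, hn, hs⟩ := h
  refine ⟨n, fun i => (H i).map (QuotientGroup.mk' N), ?_, ?_, ?_, ?_⟩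
  · simp only [h0, Subgroup.map_bot]
  · simp only [h1]
    exact Subgroup.map_top_of_surjective _ (QuotientGroup.mk'_surjective N)
  · intro i
    exact (hn i).map _ (QuotientGroup.mk'_surjective N)
  · intro i
    obtain ⟨g, hg⟩ := hs i
    refine ⟨QuotientGroup.mk' N g, ?_⟩
    simp only [hg, Subgroup.map_sup, MonoidHom.map_zpowers]

/-- a nontrivial finite supersolvable group has a normal subgroup of prime order. -/
theorem IsSupersolvable.exists_normal_prime {G : Type*} [Group G] [Finite G] [Nontrivial G]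
    (h : Cfsg.IsSupersolvable G) :
    ∃ (N : Subgroup G) (r : ℕ), N.Normal ∧ r.Prime ∧ Nat.card N = r := by
  classical
  obtain ⟨n, H, h0, h1, hn, hs⟩ := h
  -- first index where `H` is nontrivial
  have hex : ∃ i : Fin n, H i.castSucc = ⊥ ∧ H i.succ ≠ ⊥ := by
    by_contra hcon
    push Not at hcon
    have : ∀ i : Fin (n + 1), H i = ⊥ := by
      intro i
      induction i using Fin.induction with
      | zero => exact h0
      | succ i ih => exact hcon i ih
    have h2 := this (Fin.last n)
    rw [h1] at h2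
    exact top_ne_bot h2
  obtain ⟨i, hi0, hi1⟩ := hex
  obtain ⟨g, hg⟩ := hs i
  rw [hi0, bot_sup_eq] at hg
  have hg1 : g ≠ 1 := by
    rintro rfl
    apply hi1
    rw [hg, Subgroup.zpowers_one_eq_bot]
  obtain ⟨r, hr, hd⟩ := Nat.exists_prime_and_dvd
    (fun h => hg1 (orderOf_eq_one_iff.1 h) : orderOf g ≠ 1)
  have hnorm : (Subgroup.zpowers g).Normal := by rw [← hg]; exact hn _
  set y := g ^ (orderOf g / r) with hy
  have hoy : orderOf y = r := orderOf_pow_orderOf_div (orderOf_pos g).ne' hd
  refine ⟨Subgroup.zpowers y, r, ⟨?_⟩, hr, ?_⟩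
  · intro x hx a
    obtain ⟨k, rfl⟩ := hx
    have h3 : a * g * a⁻¹ ∈ Subgroup.zpowers g :=
      hnorm.conj_mem g (Subgroup.mem_zpowers g) a
    obtain ⟨j, hj⟩ := h3
    have hj' : g ^ j = a * g * a⁻¹ := hj
    refine ⟨j * k, ?_⟩
    show y ^ (j * k) = a * y ^ k * a⁻¹
    have h4 : a * y * a⁻¹ = y ^ j := by
      rw [hy, ← conj_pow, ← hj', ← zpow_natCast, ← zpow_natCast, ← zpow_mul, ← zpow_mul, mul_comm]
    rw [zpow_mul, ← h4, conj_zpow]
  · rw [Nat.card_zpowers, hoy]

/-- a finite supersolvable group satisfies `TowerCount`. -/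
theorem IsSupersolvable.towerCount {G : Type*} [Group G] [Finite G]
    (h : Cfsg.IsSupersolvable G) : TowerCount G := by
  suffices H : ∀ (n : ℕ) (G : Type _) [Group G] [Finite G], Nat.card G = n →
      Cfsg.IsSupersolvable G → TowerCount G from H _ G rfl h
  intro n
  induction n using Nat.strong_induction_on with
  | _ n ih =>
    intro G _ _ hn hG
    by_cases h1 : Nat.card G = 1
    · exact TowerCount.of_card_eq_one h1
    have hnt : Nontrivial G := by
      rw [← Finite.one_lt_card_iff_nontrivial]
      have := Nat.card_pos (α := G)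
      omega
    obtain ⟨N, r, hN, hr, hcard⟩ := IsSupersolvable.exists_normal_prime hG
    refine TowerCount.of_quotient_prime N hr hcard (ih _ ?_ _ rfl (IsSupersolvable.quotient N hG))
    rw [← hn, Subgroup.card_eq_card_quotient_mul_card_subgroup N, hcard]
    have h12 : 0 < Nat.card (G ⧸ N) := Nat.card_pos
    have := hr.two_le
    nlinarith

end Cfsg.Agent.H24
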